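import Cfsg.Agent.ThetaSeries.Poisson
import Mathlib.NumberTheory.ModularForms.LevelOne.DimensionFormula
import Mathlib.NumberTheory.ModularForms.EisensteinSeries.QExpansion
import Mathlib.Analysis.Complex.LocallyUniformLimit

/-! # The theta series of an even unimodular positive lattice of rank 24 -/

namespace Cfsg.Agent.ThetaSeries

open Matrix Complex Real ModularForm
open UpperHalfPlane hiding I I_re I_im
open scoped Topology MatrixGroups Manifold

variable {n : ℕ}

/-- The integral quadratic form. -/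
def qz (B : Matrix (Fin n) (Fin n) ℤ) (x : Fin n → ℤ) : ℤ := x ⬝ᵥ (B *ᵥ x)

/-- The real matrix. -/
noncomputable def realMat (B : Matrix (Fin n) (Fin n) ℤ) : Matrix (Fin n) (Fin n) ℝ :=
  B.map (fun m : ℤ => (m : ℝ))

theorem cast_mulVec (B : Matrix (Fin n) (Fin n) ℤ) (x : Fin n → ℤ) :
    (fun i => ((B *ᵥ x) i : ℝ)) = realMat B *ᵥ fun i => (x i : ℝ) := by
  funext i
  simp [realMat, mulVec, dotProduct]

theorem cast_qz (B : Matrix (Fin n) (Fin n) ℤ) (x : Fin n → ℤ) :
    ((qz B x : ℤ) : ℝ) = (fun i => (x i : ℝ)) ⬝ᵥ realMat B *ᵥ fun i => (x i : ℝ) := by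
  rw [← cast_mulVec]
  simp [qz, dotProduct]

theorem pos_realMat {B : Matrix (Fin n) (Fin n) ℤ} (hs : B.IsSymm)
    (hp : ∀ x : Fin n → ℤ, x ≠ 0 → 0 < qz B x) (hdet : B.det = 1) : Pos (realMat B) := by
  have hsymm : (realMat B).IsSymm := by
    ext i j; simp [realMat, hs.apply i j]
  have hnn : ∀ x : Fin n → ℝ, 0 ≤ x ⬝ᵥ realMat B *ᵥ x := by
    intro x
    have hd : DenseRange (Pi.map fun _ : Fin n => ((↑) : ℚ → ℝ)) :=
      DenseRange.piMap fun _ => Rat.denseRange_cast
    refine hd.induction_on x (isClosed_le continuous_const (by unfold dotProduct Matrix.mulVec; fun_prop))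
      fun q => ?_
    set N : ℤ := ∏ j, ((q j).den : ℤ) with hN
    set z : Fin n → ℤ := fun i => (q i).num * ∏ j ∈ Finset.univ.erase i, ((q j).den : ℤ) with hz
    have hN0 : (0 : ℝ) < (N : ℝ) := by
      rw [hN]; push_cast; exact Finset.prod_pos fun j _ => by exact_mod_cast (q j).pos
    have e : (fun i => (z i : ℝ)) = (N : ℝ) • Pi.map (fun _ : Fin n => ((↑) : ℚ → ℝ)) q := by
      funext i
      rw [Pi.smul_apply, Pi.map_apply, smul_eq_mul, hz, hN, ← Finset.mul_prod_erase _ _
        (Finset.mem_univ i), Rat.cast_def]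
      have : ((q i).den : ℝ) ≠ 0 := by exact_mod_cast (q i).pos.ne'
      push_cast
      field_simp
    have h1 : (0 : ℝ) ≤ (qz B z : ℝ) := by
      rcases eq_or_ne z 0 with h | h
      · simp [h, qz]
      · exact_mod_cast (hp z h).le
    rw [cast_qz, e, mulVec_smul, smul_dotProduct, dotProduct_smul, smul_eq_mul, smul_eq_mul,
      ← mul_assoc] at h1
    exact nonneg_of_mul_nonneg_right (mul_comm ((N : ℝ) * N) _ ▸ h1) (mul_pos hN0 hN0) |>.trans le_rfl
  refine ⟨hsymm, fun x hx => (hnn x).lt_of_ne' fun h0 => hx ?_⟩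
  have hu : IsUnit (realMat B).det := by
    rw [show (realMat B).det = ((B.det : ℤ) : ℝ) from ((Int.castRingHom ℝ).map_det B).symm, hdet]
    simp
  set y := realMat B *ᵥ x with hy
  set c := y ⬝ᵥ realMat B *ᵥ y
  have hc : 0 ≤ c := hnn y
  have hyy : y ⬝ᵥ y = 0 := by
    have h := hnn (x + (-(y ⬝ᵥ y) / (c + 1)) • y)
    have hxy : x ⬝ᵥ realMat B *ᵥ y = y ⬝ᵥ y := by
      rw [dotProduct_mulVec, ← mulVec_transpose, hsymm.eq, ← hy]
    rw [mulVec_add, mulVec_smul, dotProduct_add, add_dotProduct, add_dotProduct, dotProduct_smul,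
      smul_dotProduct, smul_dotProduct, dotProduct_smul, h0, hxy, ← hy] at h
    simp only [smul_eq_mul] at h
    have hs : 0 ≤ y ⬝ᵥ y := Finset.sum_nonneg fun i _ => mul_self_nonneg _
    have key : 0 ≤ -((y ⬝ᵥ y) ^ 2) * (c + 2) := by
      have h2 := mul_nonneg h (sq_nonneg (c + 1))
      calc (0 : ℝ) ≤ _ := h2
        _ = -((y ⬝ᵥ y) ^ 2) * (c + 2) := by
          field_simp
          ring
    nlinarith [sq_nonneg (y ⬝ᵥ y)]
  have hy0 : y = 0 := dotProduct_self_eq_zero.1 hyy
  have h2 := congrArg ((realMat B)⁻¹ *ᵥ ·) hy0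
  simpa [hy, mulVec_mulVec, nonsing_inv_mul _ hu] using h2

/-- Integral hypotheses of the theorem. -/
structure EvenUnimodular (B : Matrix (Fin 24) (Fin 24) ℤ) : Prop where
  symm : B.IsSymm
  pos : ∀ x : Fin 24 → ℤ, x ≠ 0 → 0 < qz B x
  even : ∀ x : Fin 24 → ℤ, (2 : ℤ) ∣ qz B x
  det : B.det = 1

variable {B : Matrix (Fin 24) (Fin 24) ℤ}

theorem EvenUnimodular.real (h : EvenUnimodular B) : Pos (realMat B) :=
  pos_realMat h.symm h.pos h.det

/-- Half the norm. -/
def halfNorm (B : Matrix (Fin 24) (Fin 24) ℤ) (x : Fin 24 → ℤ) : ℕ := (qz B x / 2).toNat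

theorem EvenUnimodular.qz_nonneg (h : EvenUnimodular B) (x : Fin 24 → ℤ) : 0 ≤ qz B x := by
  rcases eq_or_ne x 0 with rfl | hx
  · simp [qz]
  · exact (h.pos x hx).le

theorem EvenUnimodular.qz_eq (h : EvenUnimodular B) (x : Fin 24 → ℤ) :
    qz B x = 2 * (halfNorm B x : ℤ) := by
  obtain ⟨m, hm⟩ := h.even x
  have := h.qz_nonneg x
  unfold halfNorm
  omega

/-- The theta function. -/
noncomputable def theta (B : Matrix (Fin 24) (Fin 24) ℤ) (z : ℂ) : ℂ :=
  ∑' x : Fin 24 → ℤ, cexp (π * I * (qz B x : ℂ) * z)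

theorem gTerm_eq (B : Matrix (Fin n) (Fin n) ℤ) (z : ℂ) (x : Fin n → ℤ) :
    gTerm (realMat B) (-I * z) 0 x = cexp (π * I * (qz B x : ℂ) * z) := by
  rw [gTerm, ← cast_qz, zero_dotProduct]
  push_cast
  congr 1
  ring

theorem re_negI_mul {z : ℂ} (hz : 0 < z.im) : 0 < (-I * z).re := by simpa using hz

theorem EvenUnimodular.summable (h : EvenUnimodular B) {z : ℂ} (hz : 0 < z.im) :
    Summable fun x : Fin 24 → ℤ => ‖cexp (π * I * (qz B x : ℂ) * z)‖ :=
  (summable_gTerm h.real (re_negI_mul hz) 0).congr fun x => by rw [gTerm_eq]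

theorem theta_add_one (h : EvenUnimodular B) (z : ℂ) : theta B (z + 1) = theta B z := by
  refine tsum_congr fun x => ?_
  rw [mul_add, mul_one, Complex.exp_add, h.qz_eq x]
  have : cexp (π * I * ((2 * (halfNorm B x : ℤ) : ℤ) : ℂ)) = 1 := by
    rw [Complex.exp_eq_one_iff]
    exact ⟨halfNorm B x, by push_cast; ring⟩
  rw [this, mul_one]

theorem theta_inv (h : EvenUnimodular B) {z : ℂ} (hz : 0 < z.im) :
    theta B (-1 / z) = z ^ 12 * theta B z := by
  obtain ⟨D, hD, hP⟩ := poisson (realMat B) h.real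
  have hz0 : z ≠ 0 := fun e => by simp [e] at hz
  have hdual : ∀ w : ℂ, 0 < w.im → theta B w =
      (D : ℂ) * (1 / (-I * w) ^ (1 / 2 : ℂ)) ^ 24 * theta B (-1 / w) := by
    intro w hw
    have hu : IsUnit B.det := by rw [h.det]; exact isUnit_one
    let e : (Fin 24 → ℤ) ≃ (Fin 24 → ℤ) :=
      ⟨(B *ᵥ ·), (B⁻¹ *ᵥ ·), fun x => by simp [mulVec_mulVec, nonsing_inv_mul _ hu],
        fun x => by simp [mulVec_mulVec, mul_nonsing_inv _ hu]⟩
    have h1 := hP (-I * w) (re_negI_mul hw) 0
    rw [tsum_congr (gTerm_eq B w)] at h1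
    rw [theta, h1, ← e.tsum_eq]
    congr 1
    refine tsum_congr fun x => ?_
    have hw0 : w ≠ 0 := fun e => by simp [e] at hw
    show cexp (-π / (-I * w) * ((dual (realMat B) ((fun i => ((B *ᵥ x) i : ℝ)) - 0) : ℝ) : ℂ)) = _
    rw [sub_zero, cast_mulVec, dual, mulVec_mulVec, nonsing_inv_mul _ h.real.isUnit_det,
      one_mulVec, dotProduct_comm, ← cast_qz]
    congr 1
    push_cast
    field_simp
    linear_combination (qz B x : ℂ) * I_sq
  have hpow : ∀ w : ℂ, ((-I * w) ^ (1 / 2 : ℂ)) ^ 24 = w ^ 12 := by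
    intro w
    rw [← Complex.cpow_nat_mul, show ((24 : ℕ) : ℂ) * (1 / 2) = ((12 : ℕ) : ℂ) by norm_num,
      Complex.cpow_natCast, mul_pow, show (-I) ^ 12 = 1 by
        rw [show (-I) ^ 12 = (I ^ 2) ^ 6 by ring, I_sq]; norm_num, one_mul]
  have hD1 : D = 1 := by
    have h1 := hdual I (by simp)
    rw [_root_.one_div_pow, hpow, show I ^ 12 = 1 by
      rw [show I ^ 12 = (I ^ 2) ^ 6 by ring, I_sq]; norm_num, div_one, mul_one,
      show -1 / I = I by rw [div_eq_iff I_ne_zero, I_mul_I]] at h1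
    have hne : theta B I ≠ 0 := by
      have hr : ∀ x : Fin 24 → ℤ, cexp (π * I * (qz B x : ℂ) * I) =
          ((Real.exp (-π * (qz B x : ℝ)) : ℝ) : ℂ) := fun x => by
        push_cast
        congr 1
        linear_combination (π * (qz B x : ℂ)) * I_sq
      rw [theta, tsum_congr hr, ← ofReal_tsum, ofReal_ne_zero]
      refine (Summable.tsum_pos ?_ (fun x => (Real.exp_pos _).le) 0 (Real.exp_pos _)).ne'
      refine (h.summable (z := I) (by simp)).congr fun x => ?_
      rw [hr, Complex.norm_real, Real.norm_eq_abs, Real.abs_exp]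
    have h2 : (D : ℂ) = 1 := by
      have := mul_right_cancel₀ hne (h1.symm.trans (one_mul _).symm)
      exact this
    exact_mod_cast h2
  have h1 := hdual z hz
  rw [hD1, _root_.one_div_pow, hpow] at h1
  rw [h1]
  push_cast
  field_simp

/-- The theta function on the upper half plane. -/
noncomputable def thetaH (B : Matrix (Fin 24) (Fin 24) ℤ) : ℍ → ℂ := fun τ => theta B τ

theorem thetaH_slash_S (h : EvenUnimodular B) : thetaH B ∣[(12 : ℤ)] ModularGroup.S = thetaH B := by
  funext τ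
  rw [SL_slash_apply, ModularGroup.denom_S, UpperHalfPlane.modular_S_smul]
  show theta B (-(τ : ℂ))⁻¹ * _ = theta B τ
  rw [show (-(τ : ℂ))⁻¹ = -1 / (τ : ℂ) by rw [inv_neg]; ring, theta_inv h τ.im_pos, _root_.zpow_neg]
  have := τ.ne_zero
  norm_cast
  field_simp

theorem thetaH_slash_T (h : EvenUnimodular B) : thetaH B ∣[(12 : ℤ)] ModularGroup.T = thetaH B := by
  funext τ
  rw [SL_slash_apply, UpperHalfPlane.modular_T_smul]
  have hd : denom ModularGroup.T τ = 1 := by
    show ((((ModularGroup.T : SL(2, ℤ)) 1 0 : ℤ) : ℝ) : ℂ) * τ + ((((ModularGroup.T : SL(2, ℤ)) 1 1 : ℤ) : ℝ) : ℂ) = 1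
    simp [ModularGroup.T]
  rw [hd, _root_.one_zpow, mul_one]
  show theta B (((1 : ℝ) +ᵥ τ : ℍ) : ℂ) = theta B τ
  rw [UpperHalfPlane.coe_vadd, add_comm, ofReal_one, theta_add_one h]

theorem theta_differentiableOn (h : EvenUnimodular B) :
    DifferentiableOn ℂ (theta B) {z : ℂ | 0 < z.im} := by
  intro z hz
  have hzim : 0 < z.im := hz
  set U := {w : ℂ | z.im / 2 < w.im} with hU
  have hUo : IsOpen U := isOpen_lt continuous_const Complex.continuous_im
  have hd : DifferentiableOn ℂ (theta B) U := by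
    refine differentiableOn_tsum_of_summable_norm (h.summable (z := ((z.im / 2 : ℝ) : ℂ) * I)
      (by simpa using hzim)) (fun x => (by fun_prop : Differentiable ℂ _).differentiableOn) hUo
      fun x w hw => ?_
    have hw' : z.im / 2 < w.im := hw
    have hq : (0 : ℝ) ≤ (qz B x : ℝ) := by exact_mod_cast h.qz_nonneg x
    simp only [Complex.norm_exp, Real.exp_le_exp, mul_re, mul_im, I_re, I_im, ofReal_re, ofReal_im,
      intCast_re, intCast_im]
    nlinarith [mul_le_mul_of_nonneg_left hw'.le (mul_nonneg Real.pi_pos.le hq)]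
  exact ((hd z (by simp [hU]; linarith)).differentiableAt
    (hUo.mem_nhds (by simp [hU]; linarith))).differentiableWithinAt

/-- The number of vectors of norm `2m`. -/
noncomputable def count (B : Matrix (Fin 24) (Fin 24) ℤ) (m : ℕ) : ℕ :=
  {x : Fin 24 → ℤ | qz B x = 2 * (m : ℤ)}.ncard

theorem finite_level (h : EvenUnimodular B) (m : ℕ) :
    {x : Fin 24 → ℤ | qz B x = 2 * (m : ℤ)}.Finite := by
  have h1 := (h.summable (z := I) (by simp)).tendsto_cofinite_zero
  have h2 := h1.eventually (eventually_lt_nhds (Real.exp_pos (-π * (2 * m))))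
  rw [Filter.eventually_cofinite] at h2
  refine h2.subset fun x hx => ?_
  simp only [Set.mem_ofPred_eq] at hx ⊢
  rw [hx, not_lt, Complex.norm_exp]
  simp

theorem hasSum_theta (h : EvenUnimodular B) (τ : ℍ) :
    HasSum (fun m : ℕ => (count B m : ℂ) • Function.Periodic.qParam 1 τ ^ m) (thetaH B τ) := by
  have hs : HasSum (fun x : Fin 24 → ℤ => cexp (π * I * (qz B x : ℂ) * τ)) (thetaH B τ) :=
    (h.summable τ.im_pos).of_norm.hasSum
  refine ((Equiv.sigmaFiberEquiv (halfNorm B)).hasSum_iff.2 hs).sigma fun m => ?_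
  have hset : ∀ x : Fin 24 → ℤ, halfNorm B x = m ↔ qz B x = 2 * (m : ℤ) := fun x => by
    have := h.qz_eq x; omega
  have : Finite {x : Fin 24 → ℤ // halfNorm B x = m} :=
    ((finite_level h m).subset fun x hx => (hset x).1 hx).to_subtype
  have := Fintype.ofFinite {x : Fin 24 → ℤ // halfNorm B x = m}
  have hc : count B m = Fintype.card {x : Fin 24 → ℤ // halfNorm B x = m} := by
    rw [count, ← Nat.card_coe_set_eq, ← Nat.card_eq_fintype_card]
    exact Nat.card_congr (Equiv.subtypeEquivRight fun x => (hset x).symm)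
  convert hasSum_fintype _ using 1
  rw [Finset.sum_congr rfl fun x _ => show _ = Function.Periodic.qParam 1 (τ : ℂ) ^ m from ?_,
    Finset.sum_const, Finset.card_univ, hc, smul_eq_mul, nsmul_eq_mul]
  simp only [Function.comp_apply, Equiv.sigmaFiberEquiv_apply]
  rw [(hset x.1).1 x.2, Function.Periodic.qParam, ← Complex.exp_nat_mul]
  push_cast
  ring_nf

theorem thetaH_mdiff (h : EvenUnimodular B) : MDiff (thetaH B) := by
  rw [UpperHalfPlane.mdifferentiable_iff]
  refine (theta_differentiableOn h).congr fun z hz => ?_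
  simp [thetaH, UpperHalfPlane.ofComplex_apply_of_im_pos (show 0 < z.im from hz)]

/-- The theta series as a modular form of weight 12. -/
noncomputable def thetaForm (h : EvenUnimodular B) : ModularForm 𝒮ℒ 12 where
  toFun := thetaH B
  slash_action_eq' := fun _ ⟨γ, hγ⟩ => hγ ▸
    SlashInvariantForm.slash_action_generators_SL2Z (thetaH_slash_S h) (thetaH_slash_T h) γ
  holo' := thetaH_mdiff h
  bdd_at_cusps' {c} hc := by
    rw [Subgroup.IsArithmetic.isCusp_iff_isCusp_SL2Z] at hc
    rw [OnePoint.isBoundedAt_iff_forall_SL2Z hc]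
    intro γ _
    rw [SlashInvariantForm.slash_action_generators_SL2Z (thetaH_slash_S h) (thetaH_slash_T h) γ]
    exact UpperHalfPlane.isBoundedAtImInfty_of_hasSum_qExpansion one_pos (hasSum_theta h)

theorem thetaForm_coeff (h : EvenUnimodular B) (m : ℕ) :
    (qExpansion 1 (thetaForm h)).coeff m = count B m :=
  (ModularFormClass.qExpansion_coeff_unique one_pos one_mem_strictPeriods_SL
    (f := thetaForm h) (hasSum_theta h) m).symm

theorem count_zero (h : EvenUnimodular B) : count B 0 = 1 := by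
  have : {x : Fin 24 → ℤ | qz B x = 2 * ((0 : ℕ) : ℤ)} = {0} := by
    ext x
    simp only [Set.mem_ofPred_eq, Set.mem_singleton_iff, Nat.cast_zero, mul_zero]
    refine ⟨fun hx => by_contra fun hne => (h.pos x hne).ne' hx, fun hx => by simp [hx, qz]⟩
  rw [count, this, Set.ncard_singleton]

theorem count_values (h : EvenUnimodular B) (h1 : count B 1 = 0) :
    count B 2 = 196560 ∧ count B 3 = 16773120 ∧ count B 4 = 398034000 := by
  let A : ModularForm 𝒮ℒ 12 := (E₄.pow 3).mcast (by norm_num)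
  let C : ModularForm 𝒮ℒ 12 := (E₆.pow 2).mcast (by norm_num)
  let G : ModularForm 𝒮ℒ 12 := thetaForm h - ((7 / 12 : ℂ) • A + (5 / 12 : ℂ) • C)
  have hA : qExpansion 1 A = qExpansion 1 E₄ ^ 3 := by
    exact ModularForm.qExpansion_pow one_pos one_mem_strictPeriods_SL E₄ 3
  have hC : qExpansion 1 C = qExpansion 1 E₆ ^ 2 := by
    exact ModularForm.qExpansion_pow one_pos one_mem_strictPeriods_SL E₆ 2
  have hG : ∀ m, (qExpansion 1 G).coeff m = count B m - ((7 / 12 : ℂ) *
      (qExpansion 1 E₄ ^ 3).coeff m + (5 / 12 : ℂ) * (qExpansion 1 E₆ ^ 2).coeff m) := by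
    intro m
    simp only [G, FunLike.coe_sub]
    rw [ModularForm.qExpansion_sub one_pos one_mem_strictPeriods_SL, FunLike.coe_add,
      ModularForm.qExpansion_add one_pos one_mem_strictPeriods_SL, FunLike.coe_smul,
      FunLike.coe_smul, ModularForm.qExpansion_smul one_pos one_mem_strictPeriods_SL,
      ModularForm.qExpansion_smul one_pos one_mem_strictPeriods_SL, hA, hC, map_sub, map_add,
      map_smul, map_smul, thetaForm_coeff, smul_eq_mul, smul_eq_mul]
  have h41 : ∀ m, (qExpansion 1 E₄).coeff m =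
      if m = 0 then 1 else 240 * (ArithmeticFunction.sigma 3 m : ℂ) := by
    intro m
    rw [EisensteinSeries.E_qExpansion_coeff _ ⟨2, rfl⟩]
    norm_num [show bernoulli 4 = -1 / 30 by decide +kernel]
  have h61 : ∀ m, (qExpansion 1 E₆).coeff m =
      if m = 0 then 1 else -504 * (ArithmeticFunction.sigma 5 m : ℂ) := by
    intro m
    rw [EisensteinSeries.E_qExpansion_coeff _ ⟨3, rfl⟩]
    norm_num [show bernoulli 6 = 1 / 42 by decide +kernel]
  have hv : ∀ m < 5, ((7 / 12 : ℂ) *
      (qExpansion 1 E₄ ^ 3).coeff m + (5 / 12 : ℂ) * (qExpansion 1 E₆ ^ 2).coeff m) =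
      [1, 0, 196560, 16773120, 398034000].getD m 0 := by
    intro m hm
    have hs : ArithmeticFunction.sigma 3 2 = 9 ∧ ArithmeticFunction.sigma 3 3 = 28 ∧
        ArithmeticFunction.sigma 3 4 = 73 ∧ ArithmeticFunction.sigma 5 2 = 33 ∧
        ArithmeticFunction.sigma 5 3 = 244 ∧ ArithmeticFunction.sigma 5 4 = 1057 := by decide
    interval_cases m <;>
      norm_num [pow_succ, PowerSeries.coeff_mul, Finset.Nat.antidiagonal_succ, h41, h61, hs]
  have hG0 : G = 0 := by
    refine sturm_bound_levelOne ?_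
    refine lt_of_lt_of_le (Nat.cast_lt.2 (by decide) : (((12 : ℤ).toNat / 12 : ℕ) : ℕ∞) < ((2 : ℕ) : ℕ∞))
      (PowerSeries.nat_le_order _ _ fun i hi => ?_)
    rw [hG, hv i (by omega)]
    interval_cases i
    · simp [count_zero h]
    · simp [h1]
  have hm : ∀ m < 5, (count B m : ℂ) = [1, 0, 196560, 16773120, 398034000].getD m 0 := by
    intro m hm
    have := hG m
    rw [hG0, hv m hm] at this
    have h0 : (qExpansion 1 ((0 : ModularForm 𝒮ℒ 12) : ℍ → ℂ)) = 0 := by
      rw [FunLike.coe_zero]; exact UpperHalfPlane.qExpansion_zero 1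
    rw [h0, map_zero] at this
    exact sub_eq_zero.1 this.symm
  refine ⟨?_, ?_, ?_⟩
  · exact_mod_cast (show (count B 2 : ℂ) = 196560 from hm 2 (by norm_num))
  · exact_mod_cast (show (count B 3 : ℂ) = 16773120 from hm 3 (by norm_num))
  · exact_mod_cast (show (count B 4 : ℂ) = 398034000 from hm 4 (by norm_num))

end Cfsg.Agent.ThetaSeries
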