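import Mathlib.Analysis.SpecialFunctions.Gaussian.PoissonSummation
import Mathlib.Analysis.Normed.Ring.InfiniteSum
import Mathlib.LinearAlgebra.Matrix.PosDef

/-! # Poisson summation for Gaussians attached to positive quadratic forms on `ℤ^n`

Proved by completing one square at a time from the one-variable formula. -/

namespace Cfsg.Agent.ThetaSeries

open Matrix Complex Real

variable {n : ℕ}

/-- A real positive definite symmetric matrix (elementary form). -/
structure Pos (B : Matrix (Fin n) (Fin n) ℝ) : Prop where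
  symm : B.IsSymm
  pos : ∀ x : Fin n → ℝ, x ≠ 0 → 0 < x ⬝ᵥ B *ᵥ x

theorem Pos.isUnit_det {B : Matrix (Fin n) (Fin n) ℝ} (h : Pos B) : IsUnit B.det := by
  refine (Matrix.isUnit_iff_isUnit_det B).1 (mulVec_injective_iff_isUnit.1 ?_)
  intro x y hxy
  by_contra hne
  have := h.pos (x - y) (sub_ne_zero.2 hne)
  rw [mulVec_sub, sub_eq_zero.2 hxy] at this
  simp at this

theorem Pos.nonneg {B : Matrix (Fin n) (Fin n) ℝ} (h : Pos B) (x : Fin n → ℝ) :
    0 ≤ x ⬝ᵥ B *ᵥ x := by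
  rcases eq_or_ne x 0 with rfl | hx
  · simp
  · exact (h.pos x hx).le

theorem quadratic_lower_bound {B : Matrix (Fin n) (Fin n) ℝ} (h : Pos B) :
    ∃ ε : ℝ, 0 < ε ∧ ∀ x : Fin n → ℝ, ε * ∑ i, x i ^ 2 ≤ x ⬝ᵥ B *ᵥ x := by
  rcases Nat.eq_zero_or_pos n with hn | hn
  · subst hn
    exact ⟨1, one_pos, fun x => by simp⟩
  let S : Set (Fin n → ℝ) := {x | ∑ i, x i ^ 2 = 1}
  have hS : IsCompact S := by
    refine Metric.isCompact_of_isClosed_isBounded (isClosed_eq (by fun_prop) continuous_const) ?_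
    refine (Metric.isBounded_closedBall (x := (0 : Fin n → ℝ)) (r := 1)).subset fun x hx => ?_
    rw [Metric.mem_closedBall, dist_zero_right, pi_norm_le_iff_of_nonneg zero_le_one]
    intro i
    have hi : x i ^ 2 ≤ 1 :=
      (Finset.single_le_sum (fun j _ => sq_nonneg (x j)) (Finset.mem_univ i)).trans (le_of_eq hx)
    rw [Real.norm_eq_abs, abs_le]
    constructor <;> nlinarith [sq_nonneg (x i - 1), sq_nonneg (x i + 1)]
  have hne : S.Nonempty := ⟨Pi.single ⟨0, hn⟩ 1, by simp [S, Pi.single_apply]⟩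
  obtain ⟨x₀, hx₀, hmin⟩ := hS.exists_isMinOn hne
    (f := fun x => x ⬝ᵥ B *ᵥ x) (by unfold dotProduct Matrix.mulVec; fun_prop)
  refine ⟨_, h.pos x₀ (fun e => by simp [S, e] at hx₀), fun x => ?_⟩
  rcases eq_or_ne x 0 with rfl | hx
  · simp
  obtain ⟨i, hi⟩ := Function.ne_iff.1 hx
  have hs : 0 < ∑ i, x i ^ 2 := by
    refine Finset.sum_pos' (fun j _ => sq_nonneg _) ⟨i, Finset.mem_univ _, ?_⟩
    simpa using (sq_pos_of_ne_zero hi)
  set t := √(∑ i, x i ^ 2) with ht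
  have htp : 0 < t := Real.sqrt_pos.2 hs
  have hmem : t⁻¹ • x ∈ S := by
    simp only [S, Set.mem_setOf_eq, Pi.smul_apply, smul_eq_mul, mul_pow, ← Finset.mul_sum, inv_pow]
    rw [ht, Real.sq_sqrt hs.le, inv_mul_cancel₀ hs.ne']
  have h1 : x₀ ⬝ᵥ B *ᵥ x₀ ≤ (t⁻¹ • x) ⬝ᵥ B *ᵥ (t⁻¹ • x) := hmin hmem
  rw [mulVec_smul, smul_dotProduct, dotProduct_smul, smul_eq_mul, smul_eq_mul] at h1
  have h2 : t ^ 2 = ∑ i, x i ^ 2 := Real.sq_sqrt hs.le
  rw [← h2]
  calc x₀ ⬝ᵥ B *ᵥ x₀ * t ^ 2 ≤ t⁻¹ * (t⁻¹ * (x ⬝ᵥ B *ᵥ x)) * t ^ 2 := by gcongr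
    _ = x ⬝ᵥ B *ᵥ x := by field_simp

/-- The dual quadratic form. -/
noncomputable def dual (B : Matrix (Fin n) (Fin n) ℝ) (z : Fin n → ℝ) : ℝ := z ⬝ᵥ B⁻¹ *ᵥ z

theorem Pos.inv {B : Matrix (Fin n) (Fin n) ℝ} (h : Pos B) : Pos B⁻¹ := by
  refine ⟨?_, fun z hz => ?_⟩
  · rw [Matrix.IsSymm, Matrix.transpose_nonsing_inv, h.symm.eq]
  · have e : B *ᵥ (B⁻¹ *ᵥ z) = z := by
      rw [mulVec_mulVec, mul_nonsing_inv _ h.isUnit_det, one_mulVec]
    have := h.pos (B⁻¹ *ᵥ z) (fun e' => hz (by rw [← e, e', mulVec_zero]))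
    rwa [e, dotProduct_comm] at this

theorem summable_sqExp (s : ℝ) (hs : 0 < s) (w : ℝ) :
    Summable fun m : ℤ => Real.exp (-s * ((m : ℝ) - w) ^ 2) := by
  have hgeo : Summable fun m : ℤ => Real.exp (-(s / 2)) ^ m.natAbs := by
    have h1 := summable_geometric_of_lt_one (Real.exp_pos (-(s / 2))).le
      (Real.exp_lt_one_iff.2 (by linarith))
    exact Summable.of_nat_of_neg (by simpa using h1) (by simpa using h1)
  refine (hgeo.mul_left (Real.exp (s * w ^ 2))).of_nonneg_of_le (fun m => (Real.exp_pos _).le)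
    fun m => ?_
  rw [← Real.exp_nat_mul, ← Real.exp_add, Real.exp_le_exp, Nat.cast_natAbs]
  have h3 : (|m| : ℤ) ≤ m ^ 2 := by
    rw [← sq_abs m]; exact Int.le_self_sq _
  have h2 : ((|m| : ℤ) : ℝ) ≤ (m : ℝ) ^ 2 := by exact_mod_cast h3
  nlinarith [sq_nonneg ((m : ℝ) - 2 * w)]

theorem summable_pi_prod {f : ℤ → ℝ} (hf0 : ∀ m, 0 ≤ f m) :
    ∀ {n : ℕ} (g : Fin n → ℤ → ℝ), (∀ i m, 0 ≤ g i m) → (∀ i, Summable (g i)) →
      Summable fun y : Fin n → ℤ => ∏ i, g i (y i)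
  | 0, _, _, _ => (hasSum_fintype _).summable
  | n + 1, g, hg0, hg => by
    have h1 := (hg 0).mul_of_nonneg (summable_pi_prod hf0 (fun i => g i.succ) (fun i => hg0 _)
      (fun i => hg _)) (hg0 0) fun y => Finset.prod_nonneg fun i _ => hg0 _ _
    rw [← (Fin.consEquiv (fun _ : Fin (n + 1) => ℤ)).summable_iff]
    refine h1.congr fun p => ?_
    simp [Fin.prod_univ_succ, Fin.consEquiv]

theorem summable_gauss {B : Matrix (Fin n) (Fin n) ℝ} (h : Pos B) (s : ℝ) (hs : 0 < s)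
    (w : Fin n → ℝ) :
    Summable fun y : Fin n → ℤ =>
      Real.exp (-s * (((fun i => (y i : ℝ)) - w) ⬝ᵥ B *ᵥ ((fun i => (y i : ℝ)) - w))) := by
  obtain ⟨ε, hε, hb⟩ := quadratic_lower_bound h
  refine (summable_pi_prod (f := fun _ => 1) (fun _ => zero_le_one)
    (fun i m => Real.exp (-(s * ε) * ((m : ℝ) - w i) ^ 2)) (fun i m => (Real.exp_pos _).le)
    (fun i => summable_sqExp _ (mul_pos hs hε) _)).of_nonneg_of_le (fun y => (Real.exp_pos _).le)
    fun y => ?_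
  rw [← Real.exp_sum, Real.exp_le_exp, ← Finset.mul_sum]
  have := hb ((fun i => (y i : ℝ)) - w)
  simp only [Pi.sub_apply] at this
  nlinarith

/-- The Gaussian term. -/
noncomputable def gTerm (B : Matrix (Fin n) (Fin n) ℝ) (a : ℂ) (w : Fin n → ℝ) (x : Fin n → ℤ) :
    ℂ :=
  cexp (-π * a * (((fun i => (x i : ℝ)) ⬝ᵥ B *ᵥ fun i => (x i : ℝ) : ℝ) : ℂ) +
    2 * π * I * (((w ⬝ᵥ fun i => (x i : ℝ)) : ℝ) : ℂ))

/-- The transformed Gaussian term. -/
noncomputable def dTerm (B : Matrix (Fin n) (Fin n) ℝ) (a : ℂ) (w : Fin n → ℝ) (y : Fin n → ℤ) :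
    ℂ :=
  cexp (-π / a * ((dual B ((fun i => (y i : ℝ)) - w) : ℝ) : ℂ))

theorem re_div_pos {a : ℂ} (ha : 0 < a.re) : 0 < (π / a).re := by
  rw [div_eq_mul_inv, re_ofReal_mul, inv_re]
  refine mul_pos pi_pos (div_pos ha <| normSq_pos.mpr ?_)
  contrapose! ha
  rw [ha, zero_re]

theorem norm_gTerm (B : Matrix (Fin n) (Fin n) ℝ) (a : ℂ) (w : Fin n → ℝ) (x : Fin n → ℤ) :
    ‖gTerm B a w x‖ =
      Real.exp (-(π * a.re) * ((fun i => (x i : ℝ)) ⬝ᵥ B *ᵥ fun i => (x i : ℝ))) := by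
  simp [gTerm, Complex.norm_exp]

theorem norm_dTerm (B : Matrix (Fin n) (Fin n) ℝ) (a : ℂ) (w : Fin n → ℝ) (y : Fin n → ℤ) :
    ‖dTerm B a w y‖ = Real.exp (-(π / a).re * dual B ((fun i => (y i : ℝ)) - w)) := by
  rw [dTerm, Complex.norm_exp, neg_div, neg_mul, neg_re, re_mul_ofReal]
  ring_nf

theorem summable_gTerm {B : Matrix (Fin n) (Fin n) ℝ} (h : Pos B) {a : ℂ} (ha : 0 < a.re)
    (w : Fin n → ℝ) : Summable fun x => ‖gTerm B a w x‖ := by
  refine (summable_gauss h (π * a.re) (mul_pos pi_pos ha) 0).congr fun x => ?_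
  rw [norm_gTerm, sub_zero]

theorem summable_dTerm {B : Matrix (Fin n) (Fin n) ℝ} (h : Pos B) {a : ℂ} (ha : 0 < a.re)
    (w : Fin n → ℝ) : Summable fun y => ‖dTerm B a w y‖ := by
  refine (summable_gauss h.inv (π / a).re (re_div_pos ha) w).congr fun x => ?_
  rw [norm_dTerm]; rfl

theorem cast_cons (x₀ : ℤ) (x : Fin n → ℤ) :
    (fun i => ((Fin.cons x₀ x : Fin (n + 1) → ℤ) i : ℝ)) =
      Fin.cons (x₀ : ℝ) fun i => (x i : ℝ) := by
  funext i; refine Fin.cases ?_ ?_ i <;> simp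

theorem cons_dot (a : ℝ) (u : Fin n → ℝ) (v : Fin (n + 1) → ℝ) :
    (Fin.cons a u : Fin (n + 1) → ℝ) ⬝ᵥ v = a * v 0 + u ⬝ᵥ fun i => v i.succ := by
  simp [dotProduct, Fin.sum_univ_succ]

theorem gauss_exponent {A b : ℂ} (hA : A ≠ 0) (hb : b ≠ 0) (s y w q r : ℂ) :
    -π * A * (b * s ^ 2 + q) + 2 * π * I * r +
        -π / (A * b) * (y + I * (-(A * b * s) + I * w)) ^ 2 =
      -π / (A * b) * (y - w) ^ 2 + (-π * A * q + 2 * π * I * (r + (y - w) * s)) := by
  have h : y + I * (-(A * b * s) + I * w) = (y - w) - I * (A * b * s) := by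
    linear_combination w * I_sq
  rw [h, sub_sq (y - w), mul_pow, I_sq]
  field_simp
  ring

/-- Poisson summation for a positive quadratic form: there is a positive constant. -/
theorem poisson : ∀ {n : ℕ} (B : Matrix (Fin n) (Fin n) ℝ), Pos B → ∃ D : ℝ, 0 < D ∧
    ∀ (a : ℂ), 0 < a.re → ∀ w : Fin n → ℝ,
      ∑' x, gTerm B a w x = (D : ℂ) * (1 / a ^ (1 / 2 : ℂ)) ^ n * ∑' y, dTerm B a w y
  | 0, B, _ => ⟨1, one_pos, fun a _ w => by simp [gTerm, dTerm, dual, tsum_fintype]⟩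
  | n + 1, B, hB => by
    set b := B 0 0 with hbdef
    have hb : 0 < b := by
      have := hB.pos (Pi.single 0 1) (by simp)
      simpa [mulVec_single, dotProduct, Pi.single_apply] using this
    set c : Fin n → ℝ := fun j => B 0 j.succ / b with hc
    set B' : Matrix (Fin n) (Fin n) ℝ := fun i j => B i.succ j.succ - b * c i * c j with hB'def
    -- `B` applied to a vector
    have hmv : ∀ (x₀ : ℝ) (x : Fin n → ℝ), B *ᵥ (Fin.cons x₀ x : Fin (n + 1) → ℝ) =
        Fin.cons (b * (x₀ + c ⬝ᵥ x)) ((b * (x₀ + c ⬝ᵥ x)) • c + B' *ᵥ x) := by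
      intro x₀ x
      have hcB : ∀ j, B 0 j.succ = b * c j := fun j => by simp only [hc]; field_simp
      funext i
      refine Fin.cases ?_ (fun i => ?_) i
      · simp [mulVec, dotProduct, Fin.sum_univ_succ, ← hbdef, hcB, mul_add, Finset.mul_sum,
          mul_assoc]
      · have hs : B i.succ 0 = b * c i := by rw [← hcB, hB.symm.apply]
        simp only [mulVec, dotProduct, Fin.sum_univ_succ, Fin.cons_zero, Fin.cons_succ, hs,
          Pi.add_apply, Pi.smul_apply, smul_eq_mul, hB'def]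
        rw [mul_add, add_mul, add_assoc]
        congr 1
        · ring
        · rw [Finset.mul_sum, Finset.sum_mul, ← Finset.sum_add_distrib]
          exact Finset.sum_congr rfl fun j _ => by ring
    have hQ : ∀ (x₀ : ℝ) (x : Fin n → ℝ),
        (Fin.cons x₀ x : Fin (n + 1) → ℝ) ⬝ᵥ B *ᵥ (Fin.cons x₀ x : Fin (n + 1) → ℝ) =
          b * (x₀ + c ⬝ᵥ x) ^ 2 + x ⬝ᵥ B' *ᵥ x := by
      intro x₀ x
      rw [hmv, cons_dot]
      simp only [Fin.cons_zero, Fin.cons_succ]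
      rw [dotProduct_add, dotProduct_smul, smul_eq_mul, dotProduct_comm x c]
      ring
    have hB' : Pos B' := by
      refine ⟨?_, fun x hx => ?_⟩
      · ext i j
        show B j.succ i.succ - b * c j * c i = B i.succ j.succ - b * c i * c j
        rw [hB.symm.apply]; ring
      · have := hB.pos (Fin.cons (-(c ⬝ᵥ x)) x) (fun e => hx (funext fun i => by
          simpa using congrFun e i.succ))
        rw [hQ] at this
        simpa using this
    have hdual : ∀ (z₀ : ℝ) (z : Fin n → ℝ), dual B (Fin.cons z₀ z : Fin (n + 1) → ℝ) =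
        z₀ ^ 2 / b + dual B' (z - z₀ • c) := by
      intro z₀ z
      set x := B'⁻¹ *ᵥ (z - z₀ • c) with hx
      have hBx : B' *ᵥ x = z - z₀ • c := by
        rw [hx, mulVec_mulVec, mul_nonsing_inv _ hB'.isUnit_det, one_mulVec]
      set x₀ := z₀ / b - c ⬝ᵥ x with hx0
      have e0 : b * (x₀ + c ⬝ᵥ x) = z₀ := by rw [hx0]; field_simp; ring
      have e1 : B *ᵥ (Fin.cons x₀ x : Fin (n + 1) → ℝ) = Fin.cons z₀ z := by
        rw [hmv, e0, hBx, add_sub_cancel]
      unfold dual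
      rw [← hx]
      conv_lhs => rw [← e1, mulVec_mulVec, nonsing_inv_mul _ hB.isUnit_det, one_mulVec, e1]
      rw [cons_dot]
      simp only [Fin.cons_zero, Fin.cons_succ]
      rw [hx0, sub_dotProduct, smul_dotProduct, smul_eq_mul]
      ring
    obtain ⟨D, hD, hP⟩ := poisson B' hB'
    refine ⟨D / √b, div_pos hD (Real.sqrt_pos.2 hb), fun a ha w => ?_⟩
    set w₀ := w 0 with hw0
    set w' : Fin n → ℝ := fun i => w i.succ with hw'
    have hab : 0 < (a * b).re := by simpa using mul_pos ha hb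
    have hsqrt : (a * b) ^ (1 / 2 : ℂ) = a ^ (1 / 2 : ℂ) * (√b : ℝ) := by
      have ha0 : a ≠ 0 := fun e => by simp [e] at ha
      rw [cpow_def_of_ne_zero (mul_ne_zero ha0 (by exact_mod_cast hb.ne')),
        cpow_def_of_ne_zero ha0, mul_comm a, Complex.log_ofReal_mul hb ha0, add_mul,
        Complex.exp_add, mul_comm (cexp _)]
      congr 1
      rw [Real.sqrt_eq_rpow, ofReal_cpow hb.le,
        cpow_def_of_ne_zero (by exact_mod_cast hb.ne'), ofReal_log hb.le]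
      push_cast; ring_nf
    -- the inner sum
    set F : (Fin n → ℤ) → ℤ → ℂ := fun x y =>
      cexp (-π / (a * b) * (((y : ℝ) - w₀) ^ 2 : ℝ)) * gTerm B' a (w' + ((y : ℝ) - w₀) • c) x
      with hFdef
    have hinner : ∀ x : Fin n → ℤ, (∑' x₀ : ℤ, gTerm B a w (Fin.cons x₀ x)) =
        1 / (a * b) ^ (1 / 2 : ℂ) * ∑' y : ℤ, F x y := by
      intro x
      set xr : Fin n → ℝ := fun i => (x i : ℝ) with hxr
      set s := c ⬝ᵥ xr with hs
      set β : ℂ := -(a * b * s) + I * w₀ with hβ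
      set K : ℂ := cexp (-π * a * ((b * s ^ 2 + xr ⬝ᵥ B' *ᵥ xr : ℝ) : ℂ) +
        2 * π * I * ((w' ⬝ᵥ xr : ℝ) : ℂ)) with hK
      have h1 : ∀ x₀ : ℤ, gTerm B a w (Fin.cons x₀ x) =
          K * cexp (-π * (a * b) * x₀ ^ 2 + 2 * π * β * x₀) := by
        intro x₀
        have hwd : w ⬝ᵥ (Fin.cons (x₀ : ℝ) xr : Fin (n + 1) → ℝ) = x₀ * w₀ + w' ⬝ᵥ xr := by
          rw [dotProduct_comm, cons_dot, dotProduct_comm xr]
        simp only [gTerm, cast_cons, ← hxr]
        rw [hQ, hwd, hK, ← Complex.exp_add, ← hs, hβ]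
        push_cast
        ring_nf
      rw [tsum_congr h1, tsum_mul_left, Complex.tsum_exp_neg_quadratic hab, mul_left_comm,
        ← tsum_mul_left]
      congr 1
      refine tsum_congr fun y => ?_
      have hwd : (w' + ((y : ℝ) - w₀) • c) ⬝ᵥ xr = w' ⬝ᵥ xr + ((y : ℝ) - w₀) * s := by
        rw [add_dotProduct, smul_dotProduct, smul_eq_mul]
      rw [hFdef]
      simp only [gTerm, ← hxr]
      rw [hwd, hK, ← Complex.exp_add, ← Complex.exp_add, hβ]
      congr 1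
      have ha0 : a ≠ 0 := fun e => by simp [e] at ha
      push_cast
      exact gauss_exponent ha0 (by exact_mod_cast hb.ne') _ _ _ _ _
    have hFn : ∀ x y, ‖F x y‖ = Real.exp (-(π / (a * b)).re * ((y : ℝ) - w₀) ^ 2) *
        Real.exp (-(π * a.re) * ((fun i => (x i : ℝ)) ⬝ᵥ B' *ᵥ fun i => (x i : ℝ))) := by
      intro x y
      rw [hFdef]
      simp only [norm_mul, norm_gTerm, Complex.norm_exp]
      rw [neg_div, neg_mul, neg_re, re_mul_ofReal, neg_mul (π / (a * (b : ℂ))).re]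
    have hFs : Summable (Function.uncurry F) := by
      refine Summable.of_norm ?_
      refine ((summable_gTerm hB' ha 0).mul_of_nonneg (summable_sqExp _ (re_div_pos hab) w₀)
        (fun _ => norm_nonneg _) fun _ => (Real.exp_pos _).le).congr fun p => ?_
      obtain ⟨x, y⟩ := p
      simp only [Function.uncurry, hFn, norm_gTerm]
      ring
    have houter : ∀ y : ℤ, (∑' x : Fin n → ℤ, F x y) = (D : ℂ) * (1 / a ^ (1 / 2 : ℂ)) ^ n *
        ∑' y' : Fin n → ℤ, dTerm B a w (Fin.cons y y') := by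
      intro y
      simp only [hFdef]
      rw [tsum_mul_left, hP a ha, mul_left_comm, ← tsum_mul_left]
      congr 1
      refine tsum_congr fun y' => ?_
      have e : (fun i => ((Fin.cons y y' : Fin (n + 1) → ℤ) i : ℝ)) - w =
          Fin.cons ((y : ℝ) - w₀) ((fun i => (y' i : ℝ)) - w') := by
        funext i; refine Fin.cases ?_ (fun i => ?_) i <;> simp [hw0, hw']
      simp only [dTerm]
      rw [e, hdual, ← Complex.exp_add, sub_sub]
      congr 1
      have ha0 : a ≠ 0 := fun e => by simp [e] at ha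
      have hb0 : (b : ℂ) ≠ 0 := by exact_mod_cast hb.ne'
      push_cast
      field_simp
      ring
    have hds := (summable_dTerm hB ha w).of_norm
    calc ∑' x, gTerm B a w x
        = ∑' p : ℤ × (Fin n → ℤ), gTerm B a w (Fin.cons p.1 p.2) :=
          ((Fin.consEquiv fun _ : Fin (n + 1) => ℤ).tsum_eq _).symm
      _ = ∑' (x : Fin n → ℤ) (x₀ : ℤ), gTerm B a w (Fin.cons x₀ x) := by
          have h := ((Fin.consEquiv fun _ : Fin (n + 1) => ℤ).summable_iff
            (f := gTerm B a w)).2 (summable_gTerm hB ha w).of_norm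
          rw [← (Equiv.prodComm _ _).tsum_eq]
          exact Summable.tsum_prod ((Equiv.prodComm _ _).summable_iff.2 h)
      _ = 1 / (a * b) ^ (1 / 2 : ℂ) * ∑' (x : Fin n → ℤ) (y : ℤ), F x y := by
          rw [tsum_congr hinner, tsum_mul_left]
      _ = 1 / (a * b) ^ (1 / 2 : ℂ) * ((D : ℂ) * (1 / a ^ (1 / 2 : ℂ)) ^ n *
            ∑' y, dTerm B a w y) := by
          rw [← hFs.tsum_comm, tsum_congr houter, tsum_mul_left,
            ← (Fin.consEquiv fun _ : Fin (n + 1) => ℤ).tsum_eq (dTerm B a w)]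
          congr 2
          exact (Summable.tsum_prod (f := fun p : ℤ × (Fin n → ℤ) => dTerm B a w (Fin.cons p.1 p.2))
            (((Fin.consEquiv fun _ : Fin (n + 1) => ℤ).summable_iff).2 hds)).symm
      _ = ((D / √b : ℝ) : ℂ) * (1 / a ^ (1 / 2 : ℂ)) ^ (n + 1) * ∑' y, dTerm B a w y := by
          rw [hsqrt]; push_cast; ring

end Cfsg.Agent.ThetaSeries
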